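import Cfsg.Agent.Lib.AS.NAD
import Cfsg.Agent.Lib.AS.FinH

/-! Row NA: the data in the format of the assembly. -/

set_option autoImplicit false
set_option maxRecDepth 100000

namespace Cfsg.Agent.AS

open Cfsg.Lie Cfsg.Agent.Chev NAD

theorem NAD.of_one {L R : Type} [Fintype L] [DecidableEq L] [Finite R] {D : RD L R} {q p : ℕ}
    (h : Dat D 1 q p) : NAD D (fun β => β) q p := by
  obtain ⟨m, hm, φ, h1, h2⟩ := h
  exact ⟨1, φ, m, fun _ => rfl, hm, h1, h2⟩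

theorem NAD.of_tw {T : Tab} {l n : ℕ} (h : T.cRD l n = true) {f : ℕ → ℕ} {ρ : Fin n → Fin n}
    (hρ : ∀ β, (ρ β : ℕ) = f β)
    (hm : (allN n fun β => allN n fun γ => !(Nat.beq (f β) (f γ)) || Nat.beq β γ) = true)
    {q p : ℕ} (hd : ∀ ρ : Equiv.Perm (Fin n), Rep ρ f → Dat (Tab.mkRD h) ρ q p) :
    NAD (Tab.mkRD h) ρ q p := by
  simp only [Bool.or_eq_true, allN_iff, beq_t, Bool.not_eq_true', beq_f] at hm
  have hi : Function.Injective ρ := fun β γ e =>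
    Fin.ext ((hm β β.2 γ γ.2).resolve_left fun h => h (by rw [← hρ, ← hρ, e]))
  obtain ⟨m, hm, φ, h1, h2⟩ := hd (Equiv.ofBijective _ (Finite.injective_iff_bijective.1 hi)) hρ
  exact ⟨_, φ, m, fun _ => rfl, hm, h1, h2⟩

variable {p q : ℕ}

theorem nadG2 (h : p = 3) (hq : (q : ZMod p) ≠ 0) : NAD (Tab.mkRD okG2.rd) (fun β => β) q p := by
  subst h; exact .of_one ((c3 hq).elim dG2_3p dG2_3n)

theorem nadF4 (h : p = 3) (hq : (q : ZMod p) ≠ 0) : NAD (Tab.mkRD okF4.rd) (fun β => β) q p := by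
  subst h; exact .of_one ((c3 hq).elim dF4_3p dF4_3n)

theorem nadE6 (h : p = 3 ∨ (p = 5 ∧ (q : ZMod p) = 1)) (hq : (q : ZMod p) ≠ 0) :
    NAD (Tab.mkRD okE6.rd) (fun β => β) q p := by
  rcases h with rfl | ⟨rfl, h⟩
  · exact .of_one ((c3 hq).elim dE6_3p dE6_3n)
  · exact .of_one (dE6_5p h)

theorem nadE7 (h : p = 3 ∨ ((p = 5 ∨ p = 7) ∧ (q : ZMod p) ^ 2 = 1)) (hq : (q : ZMod p) ≠ 0) :
    NAD (Tab.mkRD okE7.rd) (fun β => β) q p := by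
  rcases h with rfl | ⟨rfl | rfl, h⟩
  · exact .of_one ((c3 hq).elim dE7_3p dE7_3n)
  · exact .of_one ((c5 h).elim dE7_5p dE7_5n)
  · exact .of_one ((c7 h).elim dE7_7p dE7_7n)

theorem nadE8 (h : p = 3 ∨ p = 5 ∨ (p = 7 ∧ (q : ZMod p) ^ 2 = 1)) (hq : (q : ZMod p) ≠ 0) :
    NAD (Tab.mkRD okE8.rd) (fun β => β) q p := by
  rcases h with rfl | rfl | ⟨rfl, h⟩
  · exact .of_one ((c3 hq).elim dE8_3p dE8_3n)
  · exact .of_one ((c5' hq).elim dE8_5p fun h => h.elim dE8_5n dE8_5i)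
  · exact .of_one ((c7 h).elim dE8_7p dE8_7n)

variable {K : Type} [Field K] [Finite K] (θ : K →+* K)

theorem nad2E6 (hP : ((twE6.P : ℕ) : K) = 0) (h : p = 3 ∨ (p = 5 ∧ (q : ZMod p) = -1))
    (hq : (q : ZMod p) ≠ 0) :
    NAD (Tab.mkRD okE6.rd) (TwTab.mkTw0 okE6 twokE6 θ hP).ρ q p := by
  have hm : (allN 72 fun β => allN 72 fun γ =>
      !(Nat.beq (twE6.rho β) (twE6.rho γ)) || Nat.beq β γ) = true := by decide +kernel
  refine NAD.of_tw okE6.rd (f := twE6.rho) (fun _ => rfl) hm fun _ hρ => ?_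
  rcases h with rfl | ⟨rfl, h⟩
  · exact (c3 hq).elim (d2E6_3p hρ) (d2E6_3n hρ)
  · exact d2E6_5n hρ h

theorem nad3D4 (hP : ((twD4.P : ℕ) : K) = 0) (h : p = 3) (hq : (q : ZMod p) ≠ 0) :
    NAD (Tab.mkRD okD4.rd) (TwTab.mkTw0 okD4 twokD4 θ hP).ρ q p := by
  have hm : (allN 24 fun β => allN 24 fun γ =>
      !(Nat.beq (twD4.rho β) (twD4.rho γ)) || Nat.beq β γ) = true := by decide +kernel
  subst h
  exact NAD.of_tw okD4.rd (f := twD4.rho) (fun _ => rfl) hm fun _ hρ =>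
    (c3 hq).elim (d3D4_3p hρ) (d3D4_3n hρ)

end Cfsg.Agent.AS
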